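import Mathlib
import Cfsg.Agent.Lib.Helper32.OPG.Defs

/-!
# Project OPG (S2414), package [COMMU]

An isometry fixing `p, r, s, t` commutes with the `SL₂` of the hyperbolic quadruple.
-/

set_option autoImplicit false
open scoped Matrix

namespace Cfsg.Agent.Lib.Helper38.OPG

open Cfsg.Agent.Lib.Helper31.Siegel Cfsg.Agent.Lib.Helper32.Siegel Cfsg.Agent.Lib.Helper32.OPG

universe u

theorem pkgCommU : PkgCommU.{u} := by
  intro n F _ p r s t h σ hp hr hs ht M
  apply ext_act
  intro v
  rw [mul_act, mul_act, sl2Hom_act, sl2Hom_act, sl2Lin_apply, sl2Lin_apply]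
  have e1 : B (mat σ *ᵥ v) s = B v s := by
    conv_lhs => rw [← hs]
    exact B_act σ v s
  have e2 : B (mat σ *ᵥ v) r = B v r := by
    conv_lhs => rw [← hr]
    exact B_act σ v r
  have e3 : B (mat σ *ᵥ v) t = B v t := by
    conv_lhs => rw [← ht]
    exact B_act σ v t
  have e4 : B (mat σ *ᵥ v) p = B v p := by
    conv_lhs => rw [← hp]
    exact B_act σ v p
  rw [e1, e2, e3, e4]
  simp only [Matrix.mulVec_add, Matrix.mulVec_sub, Matrix.mulVec_smul, hp, hr, hs, ht]

end Cfsg.Agent.Lib.Helper38.OPG
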