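import Mathlib
import Cfsg.Agent.Lib.Helper32.OPG.Defs

/-!
# Project OPG (S2414), package [FIX]

If row `i` and column `i` of `g` are standard then `L g` fixes `e_i` and `f_i`.
-/

set_option autoImplicit false
open scoped Matrix

namespace Cfsg.Agent.Lib.Helper38.OPG

open Cfsg.Agent.Lib.Helper31.Siegel Cfsg.Agent.Lib.Helper32.Siegel Cfsg.Agent.Lib.Helper32.OPG

universe u

theorem pkgFix : PkgFix.{u} := by
  intro n F _ g i hrow hcol
  have hinv : (g : Matrix (Fin n) (Fin n) F) * (g : Matrix (Fin n) (Fin n) F)⁻¹ = 1 := by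
    apply Matrix.mul_nonsing_inv
    rw [g.2]
    exact isUnit_one
  have hrow' : ∀ k, (g : Matrix (Fin n) (Fin n) F)⁻¹ i k = (1 : Matrix (Fin n) (Fin n) F) i k := by
    intro k
    have h1 := congrFun (congrFun hinv i) k
    rw [Matrix.mul_apply] at h1
    rw [← h1]
    rw [Finset.sum_eq_single i]
    · rw [hrow i, Matrix.one_apply_eq, one_mul]
    · intro j _ hj
      rw [hrow j, Matrix.one_apply_ne (Ne.symm hj), zero_mul]
    · intro hi
      exact absurd (Finset.mem_univ i) hi
  rw [mat_L]
  constructor
  · rw [Matrix.mulVec_single_one]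
    funext x
    rcases x with k | k
    · simp only [Matrix.col_apply, Matrix.fromBlocks_apply₁₁]
      rw [hcol k]
      by_cases hk : k = i
      · subst hk; simp
      · simp [Matrix.one_apply_ne hk, hk]
    · simp
  · rw [Matrix.mulVec_single_one]
    funext x
    rcases x with k | k
    · simp
    · simp only [Matrix.col_apply, Matrix.fromBlocks_apply₂₂, Matrix.transpose_apply]
      rw [hrow' k]
      by_cases hk : k = i
      · subst hk; simp
      · simp [Matrix.one_apply_ne (Ne.symm hk), hk]

end Cfsg.Agent.Lib.Helper38.OPG
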