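import Mathlib
import Cfsg.Agent.Lib.Helper32.OPG.Defs

/-!
# Project OPG (S2414), package [XL]

The Levi image of a transvection of `SL_n` is the root element `X_{ij}(c)`.
-/

set_option autoImplicit false
open scoped Matrix

namespace Cfsg.Agent.Lib.Helper38.OPG

open Cfsg.Agent.Lib.Helper31.Siegel Cfsg.Agent.Lib.Helper32.Siegel Cfsg.Agent.Lib.Helper32.OPG

universe u

theorem pkgXL : PkgXL.{u} := by
  intro n F _ i j hij c v
  rw [mat_L]
  have hinv : ((Matrix.SpecialLinearGroup.transvection hij c :
      Matrix.SpecialLinearGroup (Fin n) F) : Matrix (Fin n) (Fin n) F)⁻¹ =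
      Matrix.transvection i j (-c) := by
    apply Matrix.inv_eq_right_inv
    show Matrix.transvection i j c * Matrix.transvection i j (-c) = 1
    rw [Matrix.transvection_mul_transvection_same i j hij, add_neg_cancel,
      Matrix.transvection_zero]
  rw [hinv, B_E, B_Fv]
  have hv : v = Sum.elim (v ∘ Sum.inl) (v ∘ Sum.inr) := (Sum.elim_comp_inl_inr v).symm
  conv_lhs => rw [hv, Matrix.fromBlocks_mulVec]
  simp only [Sum.elim_comp_inl, Sum.elim_comp_inr, Matrix.zero_mulVec, add_zero, zero_add]
  funext x
  rcases x with k | k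
  · simp only [Sum.elim_inl, Pi.add_apply, Pi.sub_apply, Pi.smul_apply, smul_eq_mul]
    show ((Matrix.transvection i j c) *ᵥ (v ∘ Sum.inl)) k = _
    rw [Matrix.transvection, Matrix.add_mulVec, Matrix.one_mulVec, Pi.add_apply]
    by_cases hk : k = i
    · subst hk
      simp [Matrix.mulVec, dotProduct, Matrix.single_apply]
    · simp [Matrix.mulVec, dotProduct, Matrix.single_apply, hk, Ne.symm hk]
  · simp only [Sum.elim_inr, Pi.add_apply, Pi.sub_apply, Pi.smul_apply, smul_eq_mul]
    rw [Matrix.transvection, Matrix.transpose_add, Matrix.transpose_one, Matrix.add_mulVec,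
      Matrix.one_mulVec, Pi.add_apply]
    by_cases hk : k = j
    · subst hk
      simp [Matrix.mulVec, dotProduct, Matrix.single_apply, sub_eq_add_neg]
    · simp [Matrix.mulVec, dotProduct, Matrix.single_apply, hk, Ne.symm hk]

end Cfsg.Agent.Lib.Helper38.OPG
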