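import Mathlib
import Cfsg.Agent.Lib.Helper32.OPG.Defs
import Cfsg.Agent.Lib.Helper38.OPG.XL

/-!
# Project OPG (S2414), package [YZ]

The mixing element `u = sl2Hom (e_a, e_b, f_a, f_b) M`, `M 0 0 = 0`, turns `X` root groups
into a `Y` and a `Z` root group.
-/

set_option autoImplicit false
open scoped Matrix

namespace Cfsg.Agent.Lib.Helper38.OPG

open Cfsg.Agent.Lib.Helper31.Siegel Cfsg.Agent.Lib.Helper32.Siegel Cfsg.Agent.Lib.Helper32.OPG

universe u

/-- conjugating a Siegel element by an isometry. -/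
theorem isSiegel_conj {n : ℕ} {F : Type u} [Field F] {p r : Vec n F} {c : F} {σ : ↥(Iso n F)}
    (hσ : IsSiegel p r c σ) (g : ↥(Iso n F)) :
    IsSiegel (mat g *ᵥ p) (mat g *ᵥ r) c (g * σ * g⁻¹) := by
  intro v
  rw [mul_act, mul_act, hσ (mat g⁻¹ *ᵥ v)]
  have e1 : B (mat g⁻¹ *ᵥ v) r = B v (mat g *ᵥ r) := by
    rw [← B_act g (mat g⁻¹ *ᵥ v) r, act_inv]
  have e2 : B (mat g⁻¹ *ᵥ v) p = B v (mat g *ᵥ p) := by
    rw [← B_act g (mat g⁻¹ *ᵥ v) p, act_inv]
  rw [e1, e2]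
  simp only [Matrix.mulVec_add, Matrix.mulVec_sub, Matrix.mulVec_smul, act_inv]

/-- rescaling the first vector of a Siegel element. -/
theorem isSiegel_smul_left {n : ℕ} {F : Type u} [Field F] {p r : Vec n F} {c d : F}
    {σ : ↥(Iso n F)} (hσ : IsSiegel (d • p) r c σ) : IsSiegel p r (d * c) σ := by
  intro v
  rw [hσ v, B_smul_right]
  module

/-- rescaling the second vector of a Siegel element. -/
theorem isSiegel_smul_right {n : ℕ} {F : Type u} [Field F] {p r : Vec n F} {c d : F}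
    {σ : ↥(Iso n F)} (hσ : IsSiegel p (d • r) c σ) : IsSiegel p r (d * c) σ := by
  intro v
  rw [hσ v, B_smul_right]
  module

theorem pkgYZ : PkgYZ.{u} := by
  intro n F _ a b hab M hM K hX hu i hia hib
  have h := hyp4 (F := F) hab
  have hdet := M.2
  rw [Matrix.det_fin_two, hM, zero_mul, zero_sub] at hdet
  -- hdet : -(M 0 1 * M 1 0) = 1
  have h10 : (M : Matrix (Fin 2) (Fin 2) F) 1 0 ≠ 0 := by
    intro h0
    rw [h0, mul_zero, neg_zero] at hdet
    exact zero_ne_one hdet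
  have h01 : (M : Matrix (Fin 2) (Fin 2) F) 0 1 ≠ 0 := by
    intro h0
    rw [h0, zero_mul, neg_zero] at hdet
    exact zero_ne_one hdet
  have hai : a ≠ i := Ne.symm hia
  have hbi : b ≠ i := Ne.symm hib
  -- action of `u` on the relevant vectors
  have uEa : mat (sl2Hom h M) *ᵥ (E a : Vec n F) =
      (M : Matrix (Fin 2) (Fin 2) F) 1 0 • (Fv b : Vec n F) := by
    rw [sl2Hom_act, sl2Lin_apply, B_E_Fv, B_E_Fv, B_E_E, B_E_E, if_pos rfl, if_neg hab, hM]
    module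
  have uEb : mat (sl2Hom h M) *ᵥ (E b : Vec n F) =
      (-(M : Matrix (Fin 2) (Fin 2) F) 1 0) • (Fv a : Vec n F) := by
    rw [sl2Hom_act, sl2Lin_apply, B_E_Fv, B_E_Fv, B_E_E, B_E_E, if_pos rfl, if_neg (Ne.symm hab),
      hM]
    module
  have uEi : mat (sl2Hom h M) *ᵥ (E i : Vec n F) = E i := by
    rw [sl2Hom_act, sl2Lin_apply, B_E_Fv, B_E_Fv, B_E_E, B_E_E, if_neg hia, if_neg hib]
    module
  have uFi : mat (sl2Hom h M) *ᵥ (Fv i : Vec n F) = Fv i := by
    rw [sl2Hom_act, sl2Lin_apply, B_Fv_Fv, B_Fv_Fv, B_Fv_E, B_Fv_E, if_neg hia, if_neg hib]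
    module
  have uinvEi : mat (sl2Hom h M)⁻¹ *ᵥ (E i : Vec n F) = E i := by
    have e2 := inv_act (sl2Hom h M) (E i : Vec n F)
    rw [uEi] at e2
    exact e2
  have uinvFa : mat (sl2Hom h M)⁻¹ *ᵥ (Fv a : Vec n F) =
      (M : Matrix (Fin 2) (Fin 2) F) 0 1 • (E b : Vec n F) := by
    have e : mat (sl2Hom h M) *ᵥ ((M : Matrix (Fin 2) (Fin 2) F) 0 1 • (E b : Vec n F)) = Fv a := by
      rw [Matrix.mulVec_smul, uEb, smul_smul]
      have : (M : Matrix (Fin 2) (Fin 2) F) 0 1 * -(M : Matrix (Fin 2) (Fin 2) F) 1 0 = 1 := by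
        rw [mul_neg]; exact hdet
      rw [this, one_smul]
    have e2 := inv_act (sl2Hom h M) ((M : Matrix (Fin 2) (Fin 2) F) 0 1 • (E b : Vec n F))
    rw [e] at e2
    exact e2
  constructor
  · -- (Y): conjugate `X_{i,a}` by `u⁻¹`
    intro c σ hσ
    have hτ := pkgXL n F i a hia (((M : Matrix (Fin 2) (Fin 2) F) 0 1)⁻¹ * c)
    have hτK : L n F (Matrix.SpecialLinearGroup.transvection hia
        (((M : Matrix (Fin 2) (Fin 2) F) 0 1)⁻¹ * c)) ∈ K :=
      hX i a (Set.mem_univ _) (Set.mem_univ _) hia _ _ hτ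
    have hc := isSiegel_conj hτ (sl2Hom h M)⁻¹
    rw [uinvEi, uinvFa] at hc
    have hc' := isSiegel_smul_right hc
    rw [← mul_assoc, mul_inv_cancel₀ h01, one_mul] at hc'
    rw [isSiegel_ext hσ hc']
    exact K.mul_mem (K.mul_mem (K.inv_mem hu) hτK) (K.inv_mem (K.inv_mem hu))
  · -- (Z): conjugate `X_{a,i}` by `u`
    intro c σ hσ
    have hτ := pkgXL n F a i hai (((M : Matrix (Fin 2) (Fin 2) F) 1 0)⁻¹ * c)
    have hτK : L n F (Matrix.SpecialLinearGroup.transvection hai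
        (((M : Matrix (Fin 2) (Fin 2) F) 1 0)⁻¹ * c)) ∈ K :=
      hX a i (Set.mem_univ _) (Set.mem_univ _) hai _ _ hτ
    have hc := isSiegel_conj hτ (sl2Hom h M)
    rw [uEa, uFi] at hc
    have hc' := isSiegel_smul_left hc
    rw [← mul_assoc, mul_inv_cancel₀ h10, one_mul] at hc'
    rw [isSiegel_ext hσ hc']
    exact K.mul_mem (K.mul_mem hu hτK) (K.inv_mem hu)

end Cfsg.Agent.Lib.Helper38.OPG
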